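-- TEAM PROJECT S1444 (B-G Theorem 3.6), package P9: an internal series gives p-length one.
import Mathlib
import Cfsg.Prelude.Def_Local
import Cfsg.Agent.Lib.Helper63.PLength
import Cfsg.Agent.Lib.Helper23.BG36.Defs2

set_option autoImplicit false

namespace Cfsg.Agent.Lib.Helper98.BG36

universe u

/-- the series `⊥ ≤ A ≤ B ≤ ⊤ ≤ ⊤ ≤ …` inside `K`. -/
def seriesFun {X : Type u} [Group X] (K A B : Subgroup X) : ℕ → Subgroup ↥K
  | 0 => ⊥
  | 1 => A.subgroupOf K
  | 2 => B.subgroupOf K
  | _ + 3 => ⊤

theorem subgroupOf_normal_of_le_normalizer {X : Type u} [Group X] (K A : Subgroup X)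
    (h : K ≤ Subgroup.normalizer (A : Set X)) : (A.subgroupOf K).Normal := by
  refine ⟨fun x hx g => ?_⟩
  rw [Subgroup.mem_subgroupOf] at hx ⊢
  have h1 := (Subgroup.le_normalizer_iff.mp h) g.1 g.2 x.1 hx
  simpa using h1

theorem lemmaSeries : Cfsg.Agent.Lib.Helper23.BG36.LemmaSeries.{u} := by
  intro X _ _ p hp K R hser
  obtain ⟨A, B, hAB, hBK, hnA, hnB, hAc, ⟨k, hk⟩, hBc⟩ := hser
  have : Fact p.Prime := ⟨hp⟩
  have hKA : K ≤ Subgroup.normalizer (A : Set X) := le_sup_left.trans hnA
  have hKB : K ≤ Subgroup.normalizer (B : Set X) := le_sup_left.trans hnB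
  have hAn : (A.subgroupOf K).Normal := subgroupOf_normal_of_le_normalizer K A hKA
  have hBn : (B.subgroupOf K).Normal := subgroupOf_normal_of_le_normalizer K B hKB
  have hABn : (A.subgroupOf B).Normal :=
    subgroupOf_normal_of_le_normalizer B A (hBK.trans hKA)
  have hser : Cfsg.Agent.Lib.Helper63.IsPSeries p (seriesFun K A B) := by
    refine ⟨rfl, ?_, ?_, ?_⟩
    · intro n
      match n with
      | 0 => exact (inferInstance : (⊥ : Subgroup ↥K).Normal)
      | 1 => exact hAn
      | 2 => exact hBn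
      | _ + 3 => exact (inferInstance : (⊤ : Subgroup ↥K).Normal)
    · intro n hn x hx
      match n, hn, hx with
      | 0, _, hx =>
        refine ⟨Nat.card A, hAc, ?_⟩
        have hxA : (x : X) ∈ A := Subgroup.mem_subgroupOf.mp hx
        have h1 : (⟨(x : X), hxA⟩ : ↥A) ^ Nat.card A = 1 := pow_card_eq_one'
        have h2 : (x : X) ^ Nat.card A = 1 := by
          have h3 := congrArg Subtype.val h1
          rw [Subgroup.coe_pow, Subgroup.coe_one] at h3
          exact h3
        show x ^ Nat.card A ∈ (⊥ : Subgroup ↥K)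
        rw [Subgroup.mem_bot]
        exact Subtype.ext (by simpa using h2)
      | 1, hn, _ => exact absurd hn (by decide)
      | 2, _, _ =>
        refine ⟨B.relIndex K, hBc, ?_⟩
        show x ^ (B.subgroupOf K).index ∈ B.subgroupOf K
        exact Subgroup.pow_index_mem _ x
      | m + 3, _, _ =>
        exact ⟨1, Nat.coprime_one_left p, Subgroup.mem_top _⟩
    · intro n hn x hx
      match n, hn, hx with
      | 0, hn, _ => exact absurd (by decide : Even 0) hn
      | 1, _, hx =>
        refine ⟨k, ?_⟩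
        have hxB : (x : X) ∈ B := Subgroup.mem_subgroupOf.mp hx
        have h1 : (⟨(x : X), hxB⟩ : ↥B) ^ (A.subgroupOf B).index ∈ A.subgroupOf B :=
          Subgroup.pow_index_mem _ _
        have h2 : (A.subgroupOf B).index = p ^ k := hk
        rw [h2] at h1
        show x ^ (p ^ k) ∈ A.subgroupOf K
        rw [Subgroup.mem_subgroupOf]
        have h3 := Subgroup.mem_subgroupOf.mp h1
        simpa using h3
      | 2, hn, _ => exact absurd (by decide : Even 2) hn
      | m + 3, _, _ =>
        exact ⟨0, Subgroup.mem_top _⟩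
  exact Cfsg.Agent.Lib.Helper63.plengthLE_of_series hser (k := 1) rfl

end Cfsg.Agent.Lib.Helper98.BG36
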